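-- helper27: team project SUG (S2412), package [STEP] (the induction step E_m -> E_{m+1}).
import Mathlib
import Cfsg.Agent.Lib.Helper60.SUG.Defs
import Cfsg.Agent.Lib.Helper13.SUGen3
import Cfsg.Agent.Lib.Helper13.HermEmb
import Cfsg.Agent.Lib.Helper13.HermWitt
import Cfsg.Agent.Lib.Helper13.PSUSimple

set_option autoImplicit false

namespace Cfsg.Agent.Lib.Helper27.SUG

open Matrix Cfsg.Agent.Lib.Helper60.SUG Cfsg.Agent.Lib.Helper13 Cfsg.Agent.Lib.Helper45
  Cfsg.Agent.Lib.Helper44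

universe u

section step

set_option linter.unusedSectionVars false

variable {F : Type u} [Field F] [Fintype F] {q n m : ℕ}

/-- the coordinate embedding `F^m → F^n` (first `m` coordinates). -/
def embB (n m : ℕ) (F : Type u) [Field F] : Matrix (Fin n) (Fin m) F :=
  Matrix.of fun i j => if (i : ℕ) = (j : ℕ) then 1 else 0

theorem embB_mulVec (ξ : Fin m → F) (i : Fin n) :
    (embB n m F *ᵥ ξ) i = if h : (i : ℕ) < m then ξ ⟨i, h⟩ else 0 := by
  classical
  simp only [embB, Matrix.mulVec, dotProduct, Matrix.of_apply]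
  split_ifs with h
  · rw [Finset.sum_eq_single (⟨i, h⟩ : Fin m)]
    · simp
    · intro j _ hj
      rw [if_neg, zero_mul]
      intro h'
      exact hj (Fin.ext h'.symm)
    · intro h'
      exact absurd (Finset.mem_univ _) h'
  · apply Finset.sum_eq_zero
    intro j _
    rw [if_neg, zero_mul]
    intro h'
    exact h (h' ▸ j.isLt)

theorem cT_embB_mulVec (hq : q ≠ 0) (hmn : m ≤ n) (v : Fin n → F) (j : Fin m) :
    (cT q (embB n m F) *ᵥ v) j = v ⟨j, lt_of_lt_of_le j.isLt hmn⟩ := by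
  classical
  simp only [cT, embB, Matrix.mulVec, dotProduct, Matrix.of_apply]
  rw [Finset.sum_eq_single (⟨j, lt_of_lt_of_le j.isLt hmn⟩ : Fin n)]
  · simp
  · intro i _ hi
    rw [if_neg, zero_pow hq, zero_mul]
    intro h'
    exact hi (Fin.ext h')
  · intro h'
    exact absurd (Finset.mem_univ _) h'

theorem cT_embB_embB (hq : q ≠ 0) (hmn : m ≤ n) (ξ : Fin m → F) :
    cT q (embB n m F) *ᵥ (embB n m F *ᵥ ξ) = ξ := by
  funext j
  rw [cT_embB_mulVec hq hmn, embB_mulVec, dif_pos j.isLt]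

theorem isIsoEmb_embB (hF : Fintype.card F = q ^ 2) (hmn : m ≤ n) :
    IsIsoEmb q (embB n m F) := by
  have hq : q ≠ 0 := by have := two_le_q hF; omega
  intro x y
  rw [herm_mulVec_left hF, cT_embB_embB hq hmn]

theorem supp_embB (ξ : Fin m → F) : Supp m (embB n m F *ᵥ ξ) := by
  intro i hi
  rw [embB_mulVec, dif_neg (not_lt.mpr hi)]

theorem isoLift_mul_of (hF : Fintype.card F = q ^ 2) {B : Matrix (Fin n) (Fin m) F}
    (hB : IsIsoEmb q B) (A A' : Matrix (Fin m) (Fin m) F) :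
    isoLift q B (A * A') = isoLift q B A * isoLift q B A' := by
  rw [Matrix.ext_iff_mulVec]
  intro v
  have hy : cT q B *ᵥ (isoLift q B A' *ᵥ v) = A' *ᵥ (cT q B *ᵥ v) := by
    rw [isoLift_mulVec, Matrix.mulVec_sub, Matrix.mulVec_add, cT_mulVec_mulVec hF hB,
      cT_mulVec_mulVec hF hB]
    abel
  rw [← Matrix.mulVec_mulVec, isoLift_mulVec B A (isoLift q B A' *ᵥ v), hy,
    isoLift_mulVec B A' v, isoLift_mulVec B (A * A') v, ← Matrix.mulVec_mulVec]
  abel

theorem isoLift_one_eq (B : Matrix (Fin n) (Fin m) F) : isoLift q B 1 = 1 := by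
  unfold isoLift
  rw [sub_self, Matrix.mul_zero, Matrix.zero_mul, add_zero]

/-- [STEP] from [CONJ] and [SMUL]. -/
theorem pkgStep_of (hConj : PkgConj.{u}) (hSmul : PkgSmul.{u}) : PkgStep.{u} := by
  intro F _ _ q n hF K m hm hmn hq2 hA hx v hv0 hviso hvS
  classical
  have hq : q ≠ 0 := by have := two_le_q hF; omega
  have hmn' : m ≤ n := by omega
  obtain ⟨x, hxC, hxS, i, him, hxi⟩ := hx
  by_cases hl : v i = 0
  · apply hA v hv0 hviso
    intro j hj
    rcases Nat.eq_or_lt_of_le hj with h | h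
    · have : j = i := Fin.ext (by omega)
      rw [this, hl]
    · exact hvS j (by omega)
  · obtain ⟨B, hBdef⟩ : ∃ B : Matrix (Fin n) (Fin m) F, B = embB n m F := ⟨_, rfl⟩
    have hB : IsIsoEmb q B := by rw [hBdef]; exact isIsoEmb_embB hF hmn'
    obtain ⟨x₁, hx₁def⟩ : ∃ x₁ : Fin n → F, x₁ = (v i / x i) • x := ⟨_, rfl⟩
    have hx₁C : Ctr K x₁ := by
      rw [hx₁def]
      exact hSmul hF K x hxC _ (div_ne_zero hl hxi)
    have hx₁i : x₁ i = v i := by
      rw [hx₁def, Pi.smul_apply, smul_eq_mul, div_mul_cancel₀ _ hxi]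
    have hx₁S : Supp (m + 1) x₁ := by
      intro j hj
      rw [hx₁def, Pi.smul_apply, hxS j hj, smul_zero]
    obtain ⟨ξ, hξ⟩ : ∃ ξ : Fin m → F, ξ = cT q B *ᵥ v := ⟨_, rfl⟩
    obtain ⟨ξ₁, hξ₁⟩ : ∃ ξ₁ : Fin m → F, ξ₁ = cT q B *ᵥ x₁ := ⟨_, rfl⟩
    obtain ⟨r, hr⟩ : ∃ r : Fin n → F, r = v - B *ᵥ ξ := ⟨_, rfl⟩
    have hr₁ : x₁ - B *ᵥ ξ₁ = r := by
      funext j
      rw [hr, hξ, hξ₁, hBdef]
      simp only [Pi.sub_apply]
      rw [embB_mulVec, embB_mulVec]
      by_cases hj : (j : ℕ) < m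
      · rw [dif_pos hj, dif_pos hj, cT_embB_mulVec hq hmn', cT_embB_mulVec hq hmn']
        simp
      · rw [dif_neg hj, dif_neg hj, sub_zero, sub_zero]
        rcases Nat.eq_or_lt_of_le (not_lt.mp hj) with h | h
        · have : j = i := Fin.ext (by omega)
          rw [this, hx₁i]
        · rw [hx₁S j (by omega), hvS j (by omega)]
    have hrperp : cT q B *ᵥ r = 0 := by
      rw [hr, Matrix.mulVec_sub, hξ, cT_mulVec_mulVec hF hB, sub_self]
    have hv_dec : v = B *ᵥ ξ + r := by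
      rw [hr]
      abel
    have hx₁_dec : x₁ = B *ᵥ ξ₁ + r := by
      rw [← hr₁]
      abel
    have hperp : ∀ ζ : Fin m → F, Cfsg.hermForm n F q (B *ᵥ ζ) r = 0 := by
      intro ζ
      rw [herm_mulVec_left hF, hrperp, herm_zero_right hF]
    have hperp' : ∀ ζ : Fin m → F, Cfsg.hermForm n F q r (B *ᵥ ζ) = 0 :=
      fun ζ => herm_swap_zero hF (hperp ζ)
    have hnorm : ∀ ζ : Fin m → F, Cfsg.hermForm n F q (B *ᵥ ζ + r) (B *ᵥ ζ + r) =
        Cfsg.hermForm m F q ζ ζ + Cfsg.hermForm n F q r r := by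
      intro ζ
      rw [herm_add_left, herm_add_right hF, herm_add_right hF, hperp, hperp', hB]
      ring
    have hrr : Cfsg.hermForm n F q r r ≠ 0 := by
      have hrs : r = v i • Pi.single i (1 : F) := by
        funext j
        rw [hr, hξ, hBdef]
        simp only [Pi.sub_apply, Pi.smul_apply, smul_eq_mul]
        rw [embB_mulVec]
        by_cases hj : (j : ℕ) < m
        · rw [dif_pos hj, cT_embB_mulVec hq hmn']
          have hji : j ≠ i := fun h => by rw [h] at hj; omega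
          rw [Pi.single_eq_of_ne hji, mul_zero]
          simp
        · rw [dif_neg hj, sub_zero]
          rcases Nat.eq_or_lt_of_le (not_lt.mp hj) with h | h
          · have : j = i := Fin.ext (by omega)
            rw [this, Pi.single_eq_same, mul_one]
          · have hji : j ≠ i := fun h' => by rw [h'] at h; omega
            rw [Pi.single_eq_of_ne hji, mul_zero, hvS j (by omega)]
      rw [hrs, herm_smul_left, herm_smul_right, herm_single_right hq, Pi.single_eq_same]
      exact mul_ne_zero hl (mul_ne_zero (pow_ne_zero _ hl) one_ne_zero)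
    have hξn : Cfsg.hermForm m F q ξ ξ = - Cfsg.hermForm n F q r r := by
      have h := hnorm ξ
      rw [← hv_dec, hviso] at h
      exact eq_neg_of_add_eq_zero_left h.symm
    have hξ₁n : Cfsg.hermForm m F q ξ₁ ξ₁ = - Cfsg.hermForm n F q r r := by
      have h := hnorm ξ₁
      rw [← hx₁_dec, hx₁C.2.1] at h
      exact eq_neg_of_add_eq_zero_left h.symm
    obtain ⟨G, hG, hGdet, hGξ⟩ := exists_hermIso_det_map hF hm ξ₁ ξ
      (by rw [hξ₁n]; exact neg_ne_zero.mpr hrr) (by rw [hξ₁n, hξn]) 1 (one_pow _)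
    have hGT : InT m F q G := by
      apply su_inT hF m _ G hG hGdet
      by_cases h2 : q = 2
      · exact Or.inl (hq2 h2)
      · have := two_le_q hF
        exact Or.inr (by omega)
    have hlift : ∀ A : Matrix (Fin m) (Fin m) F, InT m F q A →
        ∃ g ∈ K, mat g = isoLift q B A := by
      intro A hA'
      refine Submonoid.closure_induction
        (motive := fun A _ => ∃ g ∈ K, mat g = isoLift q B A) ?_ ?_ ?_ hA'
      · rintro _ ⟨u, c, hu, hc, rfl⟩
        rw [isoLift_utransv hF]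
        by_cases hu0 : B *ᵥ u = 0
        · refine ⟨1, K.one_mem, ?_⟩
          rw [hu0, utransv_zero_left]
          rfl
        · have hBu : Cfsg.hermForm n F q (B *ᵥ u) (B *ᵥ u) = 0 := by rw [hB, hu]
          have hC := hA (B *ᵥ u) hu0 hBu (by rw [hBdef]; exact supp_embB u)
          exact ⟨suMk _ (det_utransv _ c hBu) (isHermIso_utransv hF _ c hBu hc),
            hC.2.2 _ c hc rfl, rfl⟩
      · refine ⟨1, K.one_mem, ?_⟩
        rw [isoLift_one_eq]
        rfl
      · rintro a b _ _ ⟨ga, hga, hga'⟩ ⟨gb, hgb, hgb'⟩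
        refine ⟨ga * gb, K.mul_mem hga hgb, ?_⟩
        rw [isoLift_mul_of hF hB, ← hga', ← hgb']
        rfl
    obtain ⟨g, hgK, hgmat⟩ := hlift G hGT
    have hgv : mat g *ᵥ x₁ = v := by
      rw [hgmat, hx₁_dec, Matrix.mulVec_add, isoLift_mulVec_emb hF hB, hGξ,
        isoLift_mulVec_perp B G r hrperp, ← hv_dec]
    rw [← hgv]
    exact hConj hF K x₁ hx₁C g hgK

end step

end Cfsg.Agent.Lib.Helper27.SUG
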