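-- helper27: team project SUG (S2412), package [STEP], hypothesis-free form.
import Mathlib
import Cfsg.Agent.Lib.Helper27.SUG.Step
import Cfsg.Agent.Lib.Helper47.SUG.Line

set_option autoImplicit false

namespace Cfsg.Agent.Lib.Helper27.SUG

universe u

/-- [STEP], unconditional (CONJ and SMUL from helper47). -/
theorem pkgStep : Cfsg.Agent.Lib.Helper60.SUG.PkgStep.{u} :=
  pkgStep_of Cfsg.Agent.Lib.Helper47.SUG.pkgConj Cfsg.Agent.Lib.Helper47.SUG.pkgSmul

end Cfsg.Agent.Lib.Helper27.SUG
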